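import Cfsg.Agent.S2793
import Cfsg.Agent.Lib.CIT.Basic
import Cfsg.Agent.Lib.NormalPComplement.GlaubermanThompson
import Cfsg.Agent.Lib.FusionBasics.LocalNilpotent

/-!
Inverted elements of odd order: the global property is seen in the normalizers of `Z(J(T))`.
-/

set_option autoImplicit false

open Cfsg

namespace CfsgLib.Amalgams.InvertedLocal

variable {G : Type*} [Group G] [Finite G]

/-- If `g` inverts a non-trivial element of odd order then a Sylow `2`-subgroup is not normal. -/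
theorem not_normal_of_inverted {x g : G} (hx : Odd (orderOf x)) (hx1 : x ≠ 1)
    (h : g * x * g⁻¹ = x⁻¹) : ¬ ∀ P : Sylow 2 G, (P : Subgroup G).Normal := by
  intro hn
  have : Fact (Nat.Prime 2) := ⟨Nat.prime_two⟩
  obtain ⟨P⟩ : Nonempty (Sylow 2 G) := inferInstance
  have := hn P
  -- the image of `g` in the odd order quotient inverts the image of `x`
  set π := QuotientGroup.mk' (P : Subgroup G)
  have hodd : Odd (Nat.card (G ⧸ (P : Subgroup G))) :=
    Nat.not_even_iff_odd.1 fun he => P.not_dvd_index he.two_dvd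
  have hinv : π g * π x * (π g)⁻¹ = (π x)⁻¹ := by rw [← map_inv, ← map_mul, ← map_mul, h, map_inv]
  have h2 : π g * π g * π x * (π g * π g)⁻¹ = π x := by
    calc π g * π g * π x * (π g * π g)⁻¹ = π g * (π g * π x * (π g)⁻¹) * (π g)⁻¹ := by group
      _ = π g * (π x)⁻¹ * (π g)⁻¹ := by rw [hinv]
      _ = (π g * π x * (π g)⁻¹)⁻¹ := by group
      _ = π x := by rw [hinv, inv_inv]
  have hc : Commute (π g ^ 2) (π x) := by
    rw [pow_two]
    exact mul_inv_eq_iff_eq_mul.1 h2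
  obtain ⟨k, hk⟩ := hodd.of_dvd_nat (orderOf_dvd_natCard (π g))
  have hg : π g = (π g ^ 2) ^ (k + 1) := by
    rw [← pow_mul, show 2 * (k + 1) = orderOf (π g) + 1 by omega, pow_succ, pow_orderOf_eq_one, one_mul]
  have hcg : Commute (π g) (π x) := by rw [hg]; exact hc.pow_left _
  have h3 : π x * π x = 1 := by
    have h4 := hinv
    rw [hcg.eq, mul_inv_cancel_right] at h4
    exact mul_eq_one_iff_eq_inv.2 h4
  obtain ⟨j, hj⟩ := hx
  have h5 : π x = 1 := by
    calc π x = π x ^ orderOf x * π x := by rw [← map_pow, pow_orderOf_eq_one, map_one, one_mul]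
      _ = π x ^ (2 * (j + 1)) := by rw [← pow_succ, hj]; ring_nf
      _ = 1 := by rw [pow_mul, pow_two, h3, one_pow]
  have hxP : x ∈ (P : Subgroup G) := (QuotientGroup.eq_one_iff x).1 h5
  obtain ⟨m, hm⟩ := IsPGroup.iff_orderOf.1 P.2 ⟨x, hxP⟩
  rw [Subgroup.orderOf_mk] at hm
  exact hx1 (orderOf_eq_one_iff.1 (CfsgLib.CIT.eq_one_of_two_pow_odd hm ⟨j, hj⟩))

/-- An inverted element of odd order can be taken of odd prime order. -/
theorem exists_prime_inverted {x g : G} (hx : Odd (orderOf x)) (hx1 : x ≠ 1)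
    (h : g * x * g⁻¹ = x⁻¹) :
    ∃ q : ℕ, q.Prime ∧ q ≠ 2 ∧ ∃ y : G, orderOf y = q ∧ g * y * g⁻¹ = y⁻¹ := by
  have hq := Nat.minFac_prime (n := orderOf x) fun e => hx1 (orderOf_eq_one_iff.1 e)
  have hd := Nat.minFac_dvd (orderOf x)
  refine ⟨_, hq, fun e => ?_, x ^ (orderOf x / (orderOf x).minFac),
    orderOf_pow_orderOf_div (orderOf_pos x).ne' hd, by rw [← conj_pow, h, inv_pow]⟩
  exact Nat.not_even_iff_odd.2 hx (even_iff_two_dvd.2 (e ▸ hd))

/-- Some element of odd prime order is inverted unless the Sylow `2`-subgroups are normal. -/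
theorem normal_or_inverted :
    (∀ P : Sylow 2 G, (P : Subgroup G).Normal) ∨
      ∃ q : ℕ, q.Prime ∧ q ≠ 2 ∧ ∃ x g : G, orderOf x = q ∧ g * x * g⁻¹ = x⁻¹ := by
  classical
  refine or_iff_not_imp_left.2 fun hn => ?_
  have : Fact (Nat.Prime 2) := ⟨Nat.prime_two⟩
  set D := pCore 2 G with hD
  set π := QuotientGroup.mk' D
  have hD2 : IsPGroup 2 D := Cores.isPGroup_pCore 2 G
  have hev : 2 ∣ Nat.card (G ⧸ D) := by
    by_contra hodd
    refine hn fun P => ?_
    have hle : D ≤ (P : Subgroup G) := Cores.pCore_le_sylow P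
    have hi : D.relIndex (P : Subgroup G) ∣ D.index := Subgroup.relIndex_dvd_index_of_le hle
    obtain ⟨j, hj⟩ := IsPGroup.iff_card.1 P.2
    have hd : D.relIndex (P : Subgroup G) ∣ 2 ^ j := hj ▸ Subgroup.relIndex_dvd_card _ _
    obtain ⟨i, -, he⟩ := (Nat.dvd_prime_pow Nat.prime_two).1 hd
    rcases Nat.eq_zero_or_pos i with rfl | hpos
    · have : (P : Subgroup G) ≤ D := Subgroup.relIndex_eq_one.1 he
      rw [le_antisymm this hle]
      infer_instance
    · exact absurd ((he ▸ dvd_pow_self 2 hpos.ne').trans hi) hodd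
  obtain ⟨t, ht⟩ := exists_prime_orderOf_dvd_card' (G := G ⧸ D) 2 hev
  have hout : t ∉ pCore 2 (G ⧸ D) := by
    rw [show pCore 2 (G ⧸ D) = ⊥ from Cores.pCore_quotient_pCore 2 G, Subgroup.mem_bot]
    exact Involutions.ne_one ht
  obtain ⟨x', hx'o, hx'1, hx'i⟩ := CfsgLib.CIT.exists_inverted ht hout
  obtain ⟨q, hq, hq2, z, hz, hzi⟩ := exists_prime_inverted hx'o hx'1 hx'i
  have : Fact q.Prime := ⟨hq⟩
  -- lift to an element of order `q`
  obtain ⟨a, rfl⟩ := QuotientGroup.mk'_surjective D z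
  obtain ⟨b, rfl⟩ := QuotientGroup.mk'_surjective D t
  set H := Subgroup.comap π (Subgroup.zpowers (π a))
  obtain ⟨j, hj⟩ := IsPGroup.iff_card.1 hD2
  have hH : Nat.card H = q * 2 ^ j := by
    rw [← hj, ← hz, ← Nat.card_zpowers, mul_comm]
    have h1 := (π.subgroupComap (Subgroup.zpowers (π a))).ker.card_mul_index
    rw [Subgroup.index_ker, MonoidHom.range_eq_top.2
      (MonoidHom.subgroupComap_surjective_of_surjective π _ (QuotientGroup.mk'_surjective D)),
      Subgroup.card_top] at h1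
    rw [← h1]
    congr 1
    have hDH : D ≤ H := fun d hd => by
      show π d ∈ Subgroup.zpowers (π a)
      rw [show π d = 1 from (QuotientGroup.eq_one_iff d).2 hd]
      exact one_mem _
    rw [← Nat.card_congr (Subgroup.subgroupOfEquivOfLe hDH).toEquiv]
    congr 2
    ext d
    rw [MonoidHom.mem_ker, Subgroup.mem_subgroupOf, Subtype.ext_iff]
    exact QuotientGroup.eq_one_iff _
  obtain ⟨⟨y, hy⟩, hyo⟩ := exists_prime_orderOf_dvd_card' (G := H) q (hH ▸ dvd_mul_right q _)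
  replace hyo : orderOf y = q := (Subgroup.orderOf_mk y hy).symm.trans hyo
  have hy1 : π y ≠ 1 := fun e => by
    obtain ⟨k, hk⟩ := IsPGroup.iff_orderOf.1 hD2 ⟨y, (QuotientGroup.eq_one_iff y).1 e⟩
    rw [Subgroup.orderOf_mk, hyo] at hk
    exact hq2 ((Nat.prime_dvd_prime_iff_eq hq Nat.prime_two).1 (hq.dvd_of_dvd_pow hk.dvd))
  -- move `⟨y⟩` back by an element of `D`
  have hbH : ∀ c ∈ H, b * c * b⁻¹ ∈ H := by
    intro c hc
    obtain ⟨i, hi⟩ := hc
    show π (b * c * b⁻¹) ∈ Subgroup.zpowers (π a)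
    rw [map_mul, map_mul, map_inv, ← show π a ^ i = π c from hi, ← conj_zpow, hzi]
    exact Subgroup.zpow_mem _ (inv_mem (Subgroup.mem_zpowers _)) _
  have hi : π b * π y * (π b)⁻¹ = (π y)⁻¹ := by
    obtain ⟨i, hi⟩ := hy
    rw [← show π a ^ i = π y from hi, ← conj_zpow, hzi, inv_zpow]
  have hSyl : ∀ {c : G} (hc : c ∈ H), orderOf c = q → ∃ Q : Sylow q H,
      (Q : Subgroup H).map H.subtype = Subgroup.zpowers c := by
    intro c hc hco
    obtain ⟨Q, hQ⟩ := (IsPGroup.of_card (p := q) (n := 1) (by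
      rw [Nat.card_zpowers, Subgroup.orderOf_mk, hco, pow_one]) :
      IsPGroup q (Subgroup.zpowers (⟨c, hc⟩ : H))).exists_le_sylow
    have hQc : Nat.card (Q : Subgroup H) = q := by
      rw [Q.card_eq_multiplicity, hH, Nat.factorization_mul hq.ne_zero (pow_ne_zero _ two_ne_zero),
        Finsupp.add_apply, hq.factorization_self, Nat.Prime.factorization_pow Nat.prime_two,
        Finsupp.single_apply, if_neg (Ne.symm hq2), add_zero, pow_one]
    refine ⟨Q, ?_⟩
    rw [← Subgroup.eq_of_le_of_card_ge hQ (by rw [hQc, Nat.card_zpowers, Subgroup.orderOf_mk, hco]),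
      MonoidHom.map_zpowers]
    rfl
  obtain ⟨Q₁, hQ₁⟩ := hSyl hy hyo
  obtain ⟨Q₂, hQ₂⟩ := hSyl (hbH y hy) (by rw [Involutions.orderOf_conj, hyo])
  obtain ⟨⟨h, hh⟩, hm⟩ := MulAction.exists_smul_eq H Q₂ Q₁
  -- `h b` normalises `⟨y⟩` and inverts it modulo `D`
  refine ⟨q, hq, hq2, y, h * b, hyo, ?_⟩
  obtain ⟨i, hi'⟩ : h * b * y * (h * b)⁻¹ ∈ Subgroup.zpowers y := by
    rw [← hQ₁, ← hm]
    obtain ⟨c, hc, hce⟩ := (hQ₂ ▸ Subgroup.mem_zpowers (b * y * b⁻¹) :
      b * y * b⁻¹ ∈ (Q₂ : Subgroup H).map H.subtype)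
    refine ⟨⟨h, hh⟩ * c * (⟨h, hh⟩ : H)⁻¹, ?_, ?_⟩
    · rw [SetLike.mem_coe, Sylow.coe_subgroup_smul]
      exact ⟨c, hc, rfl⟩
    · show h * (c : G) * h⁻¹ = _
      rw [show (c : G) = b * y * b⁻¹ from hce]
      group
  have e : π y ^ i = (π y)⁻¹ := by
    have hcomm : π h * (π y)⁻¹ * (π h)⁻¹ = (π y)⁻¹ := by
      obtain ⟨k₁, hk₁⟩ := hh
      obtain ⟨k₂, hk₂⟩ := hy
      rw [← show π a ^ k₁ = π h from hk₁, ← show π a ^ k₂ = π y from hk₂]
      group
    rw [← map_zpow, show y ^ i = h * b * y * (h * b)⁻¹ from hi', map_mul, map_mul, map_inv, map_mul]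
    calc π h * π b * π y * (π h * π b)⁻¹ = π h * (π b * π y * (π b)⁻¹) * (π h)⁻¹ := by group
      _ = _ := by rw [hi, hcomm]
  have ho : orderOf (π y) = q :=
    ((Nat.dvd_prime hq).1 (hyo ▸ orderOf_map_dvd π y)).resolve_left fun e' =>
      hy1 (orderOf_eq_one_iff.1 e')
  show _ = y⁻¹
  rw [show h * b * y * (h * b)⁻¹ = y ^ i from hi'.symm, ← zpow_neg_one, zpow_eq_zpow_iff_modEq, hyo,
    ← ho, ← zpow_eq_zpow_iff_modEq, zpow_neg_one, e]

/-- An inverted element of order `q` forces one inside the normalizer of `Z(J(T))`. -/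
theorem inverted_in_normalizer {q : ℕ} [Fact q.Prime] (hq2 : q ≠ 2) (T : Sylow q G) {x g : G}
    (hx : orderOf x = q) (h : g * x * g⁻¹ = x⁻¹) :
    ∃ y ∈ (T : Subgroup G), y ≠ 1 ∧
      ∃ n ∈ Subgroup.normalizer (centerThompsonAOf (T : Subgroup G) : Set G), n * y * n⁻¹ = y⁻¹ := by
  classical
  have hq := (Fact.out : q.Prime)
  set U := centerThompsonAOf (T : Subgroup G)
  set N := Subgroup.normalizer (U : Set G)
  have hx1 : x ≠ 1 := fun e => hq.ne_one (by rw [← hx, e, orderOf_one])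
  have hTN : (T : Subgroup G) ≤ N := Subgroup.le_normalizer.trans
    ((NormalPComplement.normalizer_le_normalizer_thompsonSubgroupAOf _).trans
      (FusionBasics.LocalNilpotent.normalizer_le_normalizer_inf _))
  by_cases hc : ControlsStrongFusion q U
  · obtain ⟨T', hUT', hctl⟩ := hc
    have hT'N : (T' : Subgroup G) ≤ N := by
      intro s hs
      have hUs : (fun a => s * a * s⁻¹) '' (U : Set G) ⊆ (T' : Subgroup G) := by
        rintro _ ⟨a, ha, rfl⟩
        exact mul_mem (mul_mem hs (hUT' ha)) (inv_mem hs)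
      obtain ⟨n, hn, hna⟩ := (hctl (U : Set G) hUT').2 s hUs
      refine Subgroup.mem_normalizer_iff_map_conj_eq.2 (le_antisymm ?_ ?_)
      · rintro _ ⟨a, ha, rfl⟩
        show s * a * s⁻¹ ∈ U
        rw [hna a ha]
        exact (Subgroup.mem_normalizer_iff.1 hn a).1 ha
      · intro a ha
        refine ⟨n⁻¹ * a * n, (Subgroup.mem_normalizer_iff''.1 hn a).1 ha, ?_⟩
        show s * (n⁻¹ * a * n) * s⁻¹ = a
        rw [hna _ ((Subgroup.mem_normalizer_iff''.1 hn a).1 ha)]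
        group
    -- move `x` into `T'`
    obtain ⟨R, hR⟩ := (IsPGroup.of_card (p := q) (n := 1) (by rw [Nat.card_zpowers, hx, pow_one]) :
      IsPGroup q (Subgroup.zpowers x)).exists_le_sylow
    obtain ⟨c, hc'⟩ := MulAction.exists_smul_eq G R T'
    have hx' : c * x * c⁻¹ ∈ (T' : Subgroup G) := by
      rw [← hc', Sylow.coe_subgroup_smul]
      exact ⟨x, hR (Subgroup.mem_zpowers x), rfl⟩
    set x' := c * x * c⁻¹
    set g' := c * g * c⁻¹
    have h' : g' * x' * g'⁻¹ = x'⁻¹ := by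
      calc g' * x' * g'⁻¹ = c * (g * x * g⁻¹) * c⁻¹ := by simp only [g', x']; group
        _ = x'⁻¹ := by rw [h]; simp only [x']; group
    obtain ⟨n, hn, hna⟩ := (hctl ({x'} : Set G) (Set.singleton_subset_iff.2 hx')).2 g' (by
      rw [Set.image_singleton, Set.singleton_subset_iff, SetLike.mem_coe, h']
      exact inv_mem hx')
    obtain ⟨m, hm⟩ := MulAction.exists_smul_eq N (T'.subtype hT'N) (T.subtype hTN)
    refine ⟨m * x' * (m : G)⁻¹, ?_, fun e => hx1 (conj_eq_one_iff.1 (conj_eq_one_iff.1 e)),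
      m * n * (m : G)⁻¹, mul_mem (mul_mem m.2 hn) (inv_mem m.2), ?_⟩
    · have h2 : m * (⟨x', hT'N hx'⟩ : N) * m⁻¹ ∈ ((T.subtype hTN : Sylow q N) : Subgroup N) := by
        rw [← hm, Sylow.coe_subgroup_smul]
        exact ⟨⟨x', hT'N hx'⟩, hx', rfl⟩
      exact h2
    · calc (m : G) * n * (m : G)⁻¹ * (m * x' * (m : G)⁻¹) * (m * n * (m : G)⁻¹)⁻¹
          = m * (n * x' * n⁻¹) * (m : G)⁻¹ := by group
        _ = (m * x' * (m : G)⁻¹)⁻¹ := by rw [← hna x' rfl, h']; group
  · obtain ⟨-, C, hCU, hCcard, hrel⟩ := Cfsg.Agent.S2793.result hq2 T hc N rfl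
    have hUT : U ≤ (T : Subgroup G) :=
      inf_le_left.trans (NormalPComplement.thompsonSubgroupAOf_le _)
    obtain ⟨⟨y, hy⟩, hy1⟩ : ∃ y : C, y ≠ 1 := by
      have : Nontrivial C := Finite.one_lt_card_iff_nontrivial.1 (hCcard ▸ hq.one_lt)
      exact exists_ne 1
    refine ⟨y, hUT (hCU hy), fun e => hy1 (Subtype.ext e), ?_⟩
    have : IsCyclic C := isCyclic_of_prime_card hCcard
    let A := N ⊓ Subgroup.normalizer (C : Set G)
    let ρ : A →* MulAut C := (Subgroup.normalizerMonoidHom C).comp (Subgroup.inclusion inf_le_right)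
    have hker : ρ.ker = (N ⊓ Subgroup.centralizer (C : Set G)).subgroupOf A := by
      ext a
      rw [MonoidHom.mem_ker, Subgroup.mem_subgroupOf, Subgroup.mem_inf]
      refine ⟨fun e => ⟨a.2.1, Subgroup.mem_centralizer_iff.2 fun z hz => ?_⟩, fun hz => ?_⟩
      · have e1 : (a : G) * z * (a : G)⁻¹ = z :=
          congrArg Subtype.val (DFunLike.congr_fun e (⟨z, hz⟩ : C))
        exact (mul_inv_eq_iff_eq_mul.1 e1).symm
      · refine MulEquiv.ext fun z => Subtype.ext ?_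
        show (a : G) * z * (a : G)⁻¹ = z
        rw [← (Subgroup.mem_centralizer_iff.1 hz.2) _ z.2, mul_inv_cancel_right]
    have hcardA : Nat.card (MulAut C) = q - 1 := by
      rw [IsCyclic.card_mulAut, hCcard, Nat.totient_prime hq]
    have hsurj : ρ.range = ⊤ := Subgroup.eq_top_of_card_eq _ (by
      rw [← Subgroup.index_ker, hker, hcardA]; exact hrel)
    let ι : MulAut C := MulEquiv.inv' C |>.trans (MulEquiv.mk (MulOpposite.opEquiv.symm)
      (fun a b => by
        have := (IsCyclic.commGroup (α := C)).mul_comm b.unop a.unop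
        simpa using this))
    obtain ⟨a, ha⟩ := MonoidHom.mem_range.1 (hsurj ▸ Subgroup.mem_top ι : ι ∈ ρ.range)
    exact ⟨a, a.2.1, congrArg Subtype.val (DFunLike.congr_fun ha (⟨y, hy⟩ : C))⟩

end CfsgLib.Amalgams.InvertedLocal
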