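import Cfsg.Prelude.Def_LocalEven
import Cfsg.Agent.Lib.SL2.Card
import Cfsg.Agent.Lib.CoprimeAction.Glauberman

/-!
Coordinates for a natural `SL₂`-module adapted to a Sylow `p`-subgroup of the acting group.
-/

set_option autoImplicit false
set_option linter.style.haveILetI false

open Matrix
open scoped MatrixGroups

namespace CfsgLib.Amalgams.Natural

open Cfsg

/-- Coordinates `w` on `V` and `ρ` on `L` in which `T` is the upper unitriangular group. -/
structure Coords {G : Type*} [Group G] (F : Type*) [Field F] (V L T : Subgroup G) where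
  /-- the linear representation -/
  ρ : L ≃* SL(2, F)
  /-- the vector with given coordinates -/
  w : F → F → G
  w_mem : ∀ a b, w a b ∈ V
  w_surj : ∀ v ∈ V, ∃ a b, w a b = v
  w_inj : ∀ a b a' b', w a b = w a' b' → a = a' ∧ b = b'
  w_mul : ∀ a b a' b', w a b * w a' b' = w (a + a') (b + b')
  conj : ∀ (l : L) (a b : F), (l : G) * w a b * (l : G)⁻¹ =
    w ((ρ l : Matrix (Fin 2) (Fin 2) F) 0 0 * a + (ρ l : Matrix (Fin 2) (Fin 2) F) 0 1 * b)
      ((ρ l : Matrix (Fin 2) (Fin 2) F) 1 0 * a + (ρ l : Matrix (Fin 2) (Fin 2) F) 1 1 * b)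
  mem_T : ∀ l : L, (l : G) ∈ T ↔ ∃ x : F, (ρ l : Matrix (Fin 2) (Fin 2) F) = !![1, x; 0, 1]
  T_le : T ≤ L

variable {F : Type*} [Field F]

local notation "M₂" => Matrix (Fin 2) (Fin 2) F

/-- The upper unitriangular subgroup. -/
def upperUni (F : Type*) [Field F] : Subgroup SL(2, F) where
  carrier := {A | ∃ x : F, (A : Matrix (Fin 2) (Fin 2) F) = !![1, x; 0, 1]}
  one_mem' := ⟨0, by ext i j; fin_cases i <;> fin_cases j <;> simp⟩
  mul_mem' := by
    rintro A B ⟨x, hx⟩ ⟨y, hy⟩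
    refine ⟨x + y, ?_⟩
    rw [Matrix.SpecialLinearGroup.coe_mul, hx, hy]
    ext i j
    fin_cases i <;> fin_cases j <;> simp [Matrix.mul_apply, add_comm]
  inv_mem' := by
    rintro A ⟨x, hx⟩
    refine ⟨-x, ?_⟩
    rw [Matrix.SpecialLinearGroup.coe_inv, hx, Matrix.adjugate_fin_two]
    ext i j
    fin_cases i <;> fin_cases j <;> simp

theorem card_upperUni : Nat.card (upperUni F) = Nat.card F := by
  refine (Nat.card_congr (Equiv.ofBijective
    (fun x : F => (⟨⟨!![1, x; 0, 1], by simp [Matrix.det_fin_two]⟩, x, rfl⟩ : upperUni F))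
    ⟨fun x y h => ?_, fun A => ?_⟩)).symm
  · have := congrArg (fun z : upperUni F => ((z : SL(2, F)) : M₂) 0 1) h
    simpa using this
  · obtain ⟨x, hx⟩ := A.2
    exact ⟨x, Subtype.ext (Subtype.ext hx.symm)⟩

theorem exists_coords {G : Type*} [Group G] [Finite G] {p : ℕ} [hp : Fact p.Prime] [Fintype F]
    {n : ℕ} (hF : Fintype.card F = p ^ n) {V L : Subgroup G} (hnat : IsNaturalSL2Module F V L)
    (hf : L ⊓ Subgroup.centralizer (V : Set G) = ⊥) (S : Sylow p L) :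
    Nonempty (Coords F V L ((S : Subgroup L).map L.subtype)) := by
  obtain ⟨-, ρ, ψ, hsurj, hker, hconj⟩ := hnat
  have hinj : Function.Injective ρ := by
    rw [← MonoidHom.ker_eq_bot_iff, hker, Subgroup.subgroupOf_eq_bot, disjoint_iff, inf_comm]
    exact hf
  let e : L ≃* SL(2, F) := MulEquiv.ofBijective ρ ⟨hinj, hsurj⟩
  have hcard : Nat.card SL(2, F) = p ^ n * ((p ^ n) ^ 2 - 1) := by
    rw [CfsgLib.SL2.card_SL, Nat.card_eq_fintype_card, hF]
  have hfac : (Nat.card SL(2, F)).factorization p = n := by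
    have hn : 1 < p ^ n := hF ▸ Fintype.one_lt_card
    have hn0 : n ≠ 0 := by rintro rfl; simp at hn
    have h1 : 0 < (p ^ n) ^ 2 - 1 := Nat.sub_pos_of_lt (Nat.one_lt_pow (by norm_num) hn)
    have h2 : ¬ p ∣ (p ^ n) ^ 2 - 1 := fun h => by
      have h3 : p ∣ (p ^ n) ^ 2 - 1 + 1 := by
        rw [Nat.sub_add_cancel (Nat.one_le_pow _ _ (pow_pos hp.out.pos n)), ← pow_mul]
        exact dvd_pow_self p (by omega)
      exact hp.out.not_dvd_one ((Nat.dvd_add_right h).1 h3)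
    rw [hcard, Nat.factorization_mul (pow_ne_zero _ hp.out.ne_zero) h1.ne',
      hp.out.factorization_pow]
    simp [Nat.factorization_eq_zero_of_not_dvd h2]
  let U : Sylow p SL(2, F) := Sylow.ofCard (upperUni F)
    (by rw [card_upperUni, Nat.card_eq_fintype_card, hF, hfac])
  obtain ⟨g, hg⟩ := MulAction.exists_smul_eq SL(2, F) (S.mapSurjective (f := ρ) hsurj) U
  let ρ' : L ≃* SL(2, F) := e.trans (MulAut.conj g)
  let w : F → F → G := fun a b =>
    ((ψ.symm (((g⁻¹ : SL(2, F)) : M₂).mulVec ![a, b])).toMul : V)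
  have hw : ∀ a b v, w a b = (v : V) ↔
      ψ (Additive.ofMul v) = ((g⁻¹ : SL(2, F)) : M₂).mulVec ![a, b] := by
    intro a b v
    constructor
    · intro h
      rw [← show (ψ.symm (((g⁻¹ : SL(2, F)) : M₂).mulVec ![a, b])).toMul = v from Subtype.ext h]
      simp
    · intro h
      show ((ψ.symm _).toMul : G) = (v : G)
      rw [← h, AddEquiv.symm_apply_apply, toMul_ofMul]
  have hM : ((g : SL(2, F)) : M₂) * ((g⁻¹ : SL(2, F)) : M₂) = 1 := by
    rw [← Matrix.SpecialLinearGroup.coe_mul, mul_inv_cancel, Matrix.SpecialLinearGroup.coe_one]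
  have hM' : ((g⁻¹ : SL(2, F)) : M₂) * ((g : SL(2, F)) : M₂) = 1 := by
    rw [← Matrix.SpecialLinearGroup.coe_mul, inv_mul_cancel, Matrix.SpecialLinearGroup.coe_one]
  refine ⟨⟨ρ', w, fun a b => SetLike.coe_mem _, ?_, ?_, ?_, ?_, ?_, Subgroup.map_subtype_le _⟩⟩
  · intro v hv
    set u := (g : M₂).mulVec (ψ (Additive.ofMul ⟨v, hv⟩))
    refine ⟨u 0, u 1, (hw _ _ ⟨v, hv⟩).2 ?_⟩
    have hu : ![u 0, u 1] = u := by ext i; fin_cases i <;> rfl
    rw [hu, Matrix.mulVec_mulVec, hM', Matrix.one_mulVec]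
  · intro a b a' b' h
    have h1 := congrArg ψ (congrArg Additive.ofMul
      (Subtype.ext h : (ψ.symm (((g⁻¹ : SL(2, F)) : M₂).mulVec ![a, b])).toMul =
        (ψ.symm (((g⁻¹ : SL(2, F)) : M₂).mulVec ![a', b'])).toMul))
    simp only [ofMul_toMul, AddEquiv.apply_symm_apply] at h1
    have h2 := congrArg (fun z => (g : M₂).mulVec z) h1
    simp only [Matrix.mulVec_mulVec, hM, Matrix.one_mulVec] at h2
    exact ⟨by simpa using congrFun h2 0, by simpa using congrFun h2 1⟩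
  · intro a b a' b'
    refine ((hw _ _ ((ψ.symm (((g⁻¹ : SL(2, F)) : M₂).mulVec ![a, b])).toMul *
      (ψ.symm (((g⁻¹ : SL(2, F)) : M₂).mulVec ![a', b'])).toMul)).2 ?_).symm
    rw [ofMul_mul, ofMul_toMul, ofMul_toMul, map_add, AddEquiv.apply_symm_apply,
      AddEquiv.apply_symm_apply, ← Matrix.mulVec_add]
    simp
  · intro l a b
    obtain ⟨v', hv', hψ⟩ := hconj l ((ψ.symm (((g⁻¹ : SL(2, F)) : M₂).mulVec ![a, b])).toMul)
    refine (hv'.symm.trans (((hw _ _ v').2 ?_).symm))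
    rw [hψ, ofMul_toMul, AddEquiv.apply_symm_apply]
    have hρ : (ρ' l : M₂) = (g : M₂) * (ρ l : M₂) * ((g⁻¹ : SL(2, F)) : M₂) := by
      rw [← Matrix.SpecialLinearGroup.coe_mul, ← Matrix.SpecialLinearGroup.coe_mul]
      rfl
    rw [show ![(ρ' l : M₂) 0 0 * a + (ρ' l : M₂) 0 1 * b,
        (ρ' l : M₂) 1 0 * a + (ρ' l : M₂) 1 1 * b] = (ρ' l : M₂).mulVec ![a, b] by
      ext i; fin_cases i <;> simp [Matrix.mulVec, dotProduct]]
    rw [hρ, Matrix.mulVec_mulVec, Matrix.mulVec_mulVec, ← mul_assoc, ← mul_assoc, hM', one_mul]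
  · intro l
    have hiff : (l : G) ∈ (S : Subgroup L).map L.subtype ↔ l ∈ (S : Subgroup L) := by
      rw [Subgroup.mem_map_iff_mem L.subtype_injective (x := l) |>.symm]
      rfl
    rw [hiff]
    have h1 : ρ' l ∈ upperUni F ↔ l ∈ (S : Subgroup L) := by
      show ρ' l ∈ (U : Subgroup SL(2, F)) ↔ _
      rw [← hg, Sylow.coe_subgroup_smul, Subgroup.mem_pointwise_smul_iff_inv_smul_mem,
        Sylow.coe_mapSurjective]
      have : (MulAut.conj g)⁻¹ • ρ' l = ρ l := by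
        show (MulAut.conj g).symm (MulAut.conj g (e l)) = ρ l
        rw [MulEquiv.symm_apply_apply]
        rfl
      rw [this, Subgroup.mem_map_iff_mem hinj]
    exact h1.symm

namespace Coords

variable {G : Type*} [Group G] {V L T : Subgroup G} (c : Coords F V L T)

theorem w_zero : c.w 0 0 = 1 := by
  have := c.w_mul 0 0 0 0
  rw [add_zero] at this
  exact mul_eq_left.1 this

theorem w_inv (a b : F) : (c.w a b)⁻¹ = c.w (-a) (-b) := by
  refine inv_eq_of_mul_eq_one_right ?_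
  rw [c.w_mul, add_neg_cancel, add_neg_cancel, c.w_zero]

theorem exists_eq_of_mem_T {t : G} (ht : t ∈ T) : ∃ x, ∀ a b, t * c.w a b * t⁻¹ = c.w (a + x * b) b := by
  obtain ⟨x, hx⟩ := (c.mem_T ⟨t, c.T_le ht⟩).1 ht
  refine ⟨x, fun a b => ?_⟩
  rw [c.conj ⟨t, c.T_le ht⟩ a b, hx]
  simp

theorem exists_T_elem (x : F) : ∃ t ∈ T, ∀ a b, t * c.w a b * t⁻¹ = c.w (a + x * b) b := by
  let A : SL(2, F) := ⟨!![1, x; 0, 1], by simp [Matrix.det_fin_two]⟩
  refine ⟨(c.ρ.symm A : L), (c.mem_T _).2 ⟨x, by rw [MulEquiv.apply_symm_apply]⟩, fun a b => ?_⟩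
  rw [c.conj, MulEquiv.apply_symm_apply]
  simp [A]

/-- The fixed points of `T`. -/
def line : Subgroup G where
  carrier := {v | ∃ a, v = c.w a 0}
  one_mem' := ⟨0, c.w_zero.symm⟩
  mul_mem' := by
    rintro _ _ ⟨a, rfl⟩ ⟨b, rfl⟩
    exact ⟨a + b, by rw [c.w_mul, add_zero]⟩
  inv_mem' := by
    rintro _ ⟨a, rfl⟩
    exact ⟨-a, by rw [c.w_inv, neg_zero]⟩

theorem inf_centralizer_eq : V ⊓ Subgroup.centralizer (T : Set G) = c.line := by
  apply le_antisymm
  · rintro v ⟨hv, hvc⟩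
    obtain ⟨a, b, rfl⟩ := c.w_surj v hv
    obtain ⟨t, ht, hta⟩ := c.exists_T_elem 1
    have h := hta a b
    rw [hvc t ht, mul_inv_cancel_right] at h
    have hb := (c.w_inj _ _ _ _ h).1
    refine ⟨a, ?_⟩
    have : b = 0 := by simpa using hb
    rw [this]
  · rintro _ ⟨a, rfl⟩
    refine ⟨c.w_mem a 0, fun t ht => ?_⟩
    obtain ⟨x, hx⟩ := c.exists_eq_of_mem_T ht
    have h := hx a 0
    rw [mul_zero, add_zero, mul_inv_eq_iff_eq_mul] at h
    exact h

theorem commutator_w {t : G} {x : F} (hx : ∀ a b, t * c.w a b * t⁻¹ = c.w (a + x * b) b) (a b : F) :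
    c.w a b * t * (c.w a b)⁻¹ * t⁻¹ = c.w (-(x * b)) 0 := by
  calc c.w a b * t * (c.w a b)⁻¹ * t⁻¹ = c.w a b * (t * (c.w a b)⁻¹ * t⁻¹) := by simp [mul_assoc]
    _ = c.w (-(x * b)) 0 := by
      rw [c.w_inv, hx, c.w_mul, add_neg_cancel]
      congr 1
      ring

include c in
theorem card_V [Fintype F] : Nat.card V = Fintype.card F * Fintype.card F := by
  let e : F × F ≃ V := Equiv.ofBijective (fun t => ⟨c.w t.1 t.2, c.w_mem _ _⟩)
    ⟨fun s t h => Prod.ext_iff.2 (c.w_inj _ _ _ _ (congrArg Subtype.val h)), fun v => by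
      obtain ⟨a, b, h⟩ := c.w_surj v v.2
      exact ⟨(a, b), Subtype.ext h⟩⟩
  rw [← Nat.card_congr e, Nat.card_prod, Nat.card_eq_fintype_card]

theorem card_line [Fintype F] : Nat.card c.line = Fintype.card F := by
  let e : F ≃ c.line := Equiv.ofBijective (fun a => ⟨c.w a 0, a, rfl⟩)
    ⟨fun s t h => (c.w_inj _ _ _ _ (congrArg Subtype.val h)).1, fun v => by
      obtain ⟨a, h⟩ := v.2
      exact ⟨a, Subtype.ext h.symm⟩⟩
  rw [← Nat.card_congr e, Nat.card_eq_fintype_card]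

/-- Elements of `L` mapped into the Borel subgroup normalize `T`. -/
theorem mem_normalizer [Finite G] {l : L} (h : (c.ρ l : M₂) 1 0 = 0) :
    (l : G) ∈ Subgroup.normalizer (T : Set G) := by
  refine CfsgLib.CoprimeAction.mem_normalizer_of_conj_mem fun t ht => ?_
  obtain ⟨x, hx⟩ := (c.mem_T ⟨t, c.T_le ht⟩).1 ht
  have hd := CfsgLib.SL2.det_eq (c.ρ l)
  rw [h] at hd
  refine (c.mem_T (l * ⟨t, c.T_le ht⟩ * l⁻¹)).2 ⟨(c.ρ l : M₂) 0 0 * (c.ρ l : M₂) 0 0 * x, ?_⟩
  rw [map_mul, map_mul, map_inv, Matrix.SpecialLinearGroup.coe_mul,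
    Matrix.SpecialLinearGroup.coe_mul, Matrix.SpecialLinearGroup.coe_inv, hx,
    Matrix.adjugate_fin_two]
  ext i j
  fin_cases i <;> fin_cases j <;> simp [Matrix.mul_apply, h]
  · linear_combination hd
  · linear_combination (0 : F) * hd
  · linear_combination hd

end Coords

end CfsgLib.Amalgams.Natural
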