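import Cfsg.Prelude.Def_Transfer
import Cfsg.Agent.Lib.PGroups.PStableSL
import Cfsg.Agent.Lib.SL2.SylowTwo
import Cfsg.Agent.Lib.Cores.PCore
import Cfsg.Agent.S0261

/-!
Irreducible actions of groups without `SL(2,p)` sections admit no quadratic elements, and
`PSL(2,q)`, `q` odd, has no `SL(2,p)` section.
-/

set_option autoImplicit false
open Cfsg
open scoped MatrixGroups commutatorElement

namespace CfsgLib.Amalgams

/-- `PSL(2,q)`, `q` odd, has no `SL(2,p)` section for odd `p`. -/
theorem slFree_psl_two {F : Type*} [Field F] [Fintype F] (hF : Odd (Fintype.card F)) {p : ℕ}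
    [hp : Fact p.Prime] (hp2 : p ≠ 2) :
    PGroups.SLFree p (Matrix.ProjectiveSpecialLinearGroup (Fin 2) F) := by
  intro K f hf
  let π : SL(2, F) →* Matrix.ProjectiveSpecialLinearGroup (Fin 2) F := QuotientGroup.mk' _
  have h2 : (2 : F) ≠ 0 := by
    refine Ring.two_ne_zero (R := F) fun hc => ?_
    have he := FiniteField.even_card_iff_char_two.1 hc
    rw [Nat.odd_iff] at hF
    omega
  have h2p : (2 : ZMod p) ≠ 0 := fun h => hp2 <| by
    have : ((2 : ℕ) : ZMod p) = 0 := by exact_mod_cast h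
    rw [ZMod.natCast_eq_zero_iff] at this
    exact (Nat.prime_dvd_prime_iff_eq hp.out Nat.prime_two).1 this
  set K' := K.comap π with hK'
  set g := f.comp (π.subgroupComap K) with hg
  have hgs : Function.Surjective g :=
    hf.comp (π.subgroupComap_surjective_of_surjective K (QuotientGroup.mk'_surjective _))
  have hker : ∀ x : K', (x : SL(2, F)) = -1 → g x = 1 := by
    intro x hx
    have : π.subgroupComap K x = 1 := Subtype.ext <| by
      show π (x : SL(2, F)) = 1
      rw [hx]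
      refine (QuotientGroup.eq_one_iff _).2 (Subgroup.mem_center_iff.2 fun y => ?_)
      simp
    simp [hg, this]
  have : Fact (Nat.Prime 2) := ⟨Nat.prime_two⟩
  obtain ⟨T⟩ := (Sylow.nonempty : Nonempty (Sylow 2 K'))
  obtain ⟨T', hT'⟩ := (T.2.map K'.subtype).exists_le_sylow
  obtain ⟨k', hk', ⟨e'⟩⟩ := Cfsg.Agent.S0261.result hF T'
  have hcomm : ∀ x y : (T : Subgroup K'), g x * g y = g y * g x := by
    have hmem : ∀ x : (T : Subgroup K'), ((x : K') : SL(2, F)) ∈ T' := fun x =>
      hT' ⟨(x : K'), x.2, rfl⟩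
    have hxa : ∀ (x : (T : Subgroup K')) (i : ZMod (2 * 2 ^ k')),
        e' ⟨_, hmem x⟩ = QuaternionGroup.xa i → ∀ z, g (x : K') * z = z * g (x : K') := by
      intro x i hi
      have ho : orderOf ((x : K') : SL(2, F)) = 4 := by
        rw [← QuaternionGroup.orderOf_xa i, ← hi, MulEquiv.orderOf_eq, Subgroup.orderOf_mk]
      have hx2 : ((x : K') : SL(2, F)) ^ 2 = -1 := by
        refine SL2.eq_neg_one_of_sq_eq_one h2 ?_ ?_
        · rw [← pow_mul]
          show ((x : K') : SL(2, F)) ^ 4 = 1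
          rw [← ho]
          exact pow_orderOf_eq_one _
        · intro h1
          have := orderOf_dvd_of_pow_eq_one h1
          rw [ho] at this
          omega
      have hg2 : g (x : K') ^ 2 = 1 := by
        rw [← map_pow]
        exact hker _ (by rw [Subgroup.coe_pow]; exact hx2)
      intro z
      rcases eq_or_ne (g (x : K')) 1 with h | h
      · rw [h, one_mul, mul_one]
      · rw [SL2.eq_neg_one_of_sq_eq_one h2p hg2 h]
        simp
    intro x y
    rcases hx : e' ⟨_, hmem x⟩ with i | i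
    · rcases hy : e' ⟨_, hmem y⟩ with j | j
      · rw [← map_mul, ← map_mul]
        congr 1
        apply Subtype.ext
        have h := congrArg Subtype.val
          (e'.injective (a₁ := ⟨_, hmem x⟩ * ⟨_, hmem y⟩) (a₂ := ⟨_, hmem y⟩ * ⟨_, hmem x⟩)
            (by rw [map_mul, map_mul, hx, hy, QuaternionGroup.a_mul_a, QuaternionGroup.a_mul_a,
              add_comm]))
        exact h
      · exact (hxa y j hy _).symm
    · exact hxa x i hx _
  obtain ⟨k, hk, ⟨e⟩⟩ := Cfsg.Agent.S0261.result (F := ZMod p)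
    (by rw [ZMod.card]; exact hp.out.odd_of_ne_two hp2) (T.mapSurjective hgs)
  have hc : ∀ u v : (T.mapSurjective hgs : Subgroup (SL(2, ZMod p))), u * v = v * u := by
    rintro ⟨_, u, hu, rfl⟩ ⟨_, v, hv, rfl⟩
    exact Subtype.ext (hcomm ⟨u, hu⟩ ⟨v, hv⟩)
  have hq := congrArg e (hc (e.symm (QuaternionGroup.xa 0)) (e.symm (QuaternionGroup.a 1)))
  rw [map_mul, map_mul, MulEquiv.apply_symm_apply, MulEquiv.apply_symm_apply,
    QuaternionGroup.xa_mul_a, QuaternionGroup.a_mul_xa] at hq
  injection hq with hq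
  have h4 : ((2 : ℕ) : ZMod (2 * 2 ^ k)) = 0 := by
    push_cast
    linear_combination hq
  rw [ZMod.natCast_eq_zero_iff] at h4
  have := Nat.le_of_dvd two_pos h4
  have : 2 ≤ 2 ^ k := Nat.le_self_pow (by omega) 2
  omega

/-- An irreducible `p`-module (`p` odd) of a group whose action has no `SL(2,p)` section has no
nontrivial quadratic subgroup. -/
theorem commutator_eq_bot_of_slFree_quadratic {G : Type*} [Group G] [Finite G] {p : ℕ}
    [hp : Fact p.Prime] (hp2 : p ≠ 2) (V H : Subgroup G) (hV : IsElementaryAbelian p V)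
    (hHV : H ≤ Subgroup.normalizer (V : Set G))
    (hirr : ∀ U : Subgroup G, U ≤ V → H ≤ Subgroup.normalizer (U : Set G) → U = ⊥ ∨ U = V)
    [hn : ((Subgroup.centralizer (V : Set G)).subgroupOf H).Normal]
    (hfree : PGroups.SLFree p (↥H ⧸ (Subgroup.centralizer (V : Set G)).subgroupOf H))
    (A : Subgroup G) (hA : A ≤ H) (hquad : ⁅⁅V, A⁆, A⁆ = ⊥) : ⁅V, A⁆ = ⊥ := by
  classical
  set C := (Subgroup.centralizer (V : Set G)).subgroupOf H with hC
  rw [Subgroup.commutator_comm, Subgroup.commutator_eq_bot_iff_le_centralizer]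
  intro a ha
  rcases eq_or_ne V ⊥ with rfl | hV0
  · intro v hv
    rw [Subgroup.coe_bot, Set.mem_singleton_iff] at hv
    subst hv
    simp
  let instV : CommGroup V := { (inferInstance : Group V) with mul_comm := hV.1.is_comm.comm }
  -- the action of the quotient
  let ψ : H →* MulAut V :=
    (Subgroup.normalizerMonoidHom V).comp (Subgroup.inclusion hHV)
  have hψv : ∀ (h : H) (v : V), ((ψ h v : V) : G) = h * v * (h : G)⁻¹ := fun _ _ => rfl
  have hψ : ∀ h : H, ψ h = 1 ↔ h ∈ C := by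
    intro h
    rw [hC, Subgroup.mem_subgroupOf, Subgroup.mem_centralizer_iff]
    constructor
    · intro h1 v hv
      have h2 := congrArg (fun m : MulAut V => ((m ⟨v, hv⟩ : V) : G)) h1
      simp only [hψv, MulAut.one_apply] at h2
      rw [mul_inv_eq_iff_eq_mul] at h2
      exact h2.symm
    · intro h1
      ext v
      rw [hψv, MulAut.one_apply, mul_inv_eq_iff_eq_mul]
      exact (h1 v v.2).symm
  let Ψ : ↥H ⧸ C →* MulAut V := QuotientGroup.lift C ψ fun h hh => (hψ h).2 hh
  have hΨ : Function.Injective Ψ := by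
    rw [injective_iff_map_eq_one]
    intro q
    obtain ⟨h, rfl⟩ := QuotientGroup.mk_surjective q
    exact fun h1 => (QuotientGroup.eq_one_iff h).2 ((hψ h).1 h1)
  let f : ↥H ⧸ C →* AddMonoid.End (Additive V) :=
    { toFun := fun q => MonoidHom.toAdditive (Ψ q).toMonoidHom
      map_one' := AddMonoidHom.ext fun v => by rw [map_one]; rfl
      map_mul' := fun s t => AddMonoidHom.ext fun v => by rw [map_mul]; rfl }
  have hf : ∀ q, f q = 1 → q = 1 := fun q hq => hΨ <| by
    rw [map_one]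
    ext v
    exact congrArg Subtype.val (congrArg Additive.toMul (DFunLike.congr_fun hq (Additive.ofMul v)))
  have hW : ∀ w : Additive V, p • w = 0 := fun w => Additive.toMul.injective (by
    rw [toMul_nsmul, toMul_zero]
    exact Subtype.ext (by simpa using hV.2 _ (Additive.toMul w).2))
  letI instM : Module (ZMod p) (Additive V) := AddCommGroup.zmodModule hW
  have hqa : ∀ w, f (QuotientGroup.mk ⟨a, hA ha⟩) (f (QuotientGroup.mk ⟨a, hA ha⟩) w - w)
      = f (QuotientGroup.mk ⟨a, hA ha⟩) w - w := by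
    intro w
    refine Additive.toMul.injective (Subtype.ext ?_)
    have hv := (Additive.toMul w).2
    have h1 : ⁅⁅((Additive.toMul w : V) : G), a⁆, a⁆ = 1 := by
      rw [← Subgroup.mem_bot, ← hquad]
      exact Subgroup.commutator_mem_commutator (Subgroup.commutator_mem_commutator hv ha) ha
    have := PGroups.conj_fix_of_quadratic h1
    show a * ((Additive.toMul (f (QuotientGroup.mk ⟨a, hA ha⟩) w - w) : V) : G) * a⁻¹ = _
    rw [toMul_sub, Subgroup.coe_div, div_eq_mul_inv]
    exact this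
  set q : ↥H ⧸ C := QuotientGroup.mk ⟨a, hA ha⟩ with hq
  have hqc : ∀ r w, f (r * q * r⁻¹) (f (r * q * r⁻¹) w - w) = f (r * q * r⁻¹) w - w := by
    intro r w
    have e : ∀ u, f r (f r⁻¹ u) = u := fun u => by
      change (f r * f r⁻¹) u = u
      rw [← map_mul, mul_inv_cancel, map_one]; rfl
    have e' : ∀ u, f r⁻¹ (f r u) = u := fun u => by
      change (f r⁻¹ * f r) u = u
      rw [← map_mul, inv_mul_cancel, map_one]; rfl
    have hmul : ∀ s t u, f (s * t) u = f s (f t u) := fun s t u => by rw [map_mul]; rfl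
    have h := congrArg (f r) (hqa (f r⁻¹ w))
    simp only [map_sub, e, hmul, e'] at h ⊢
    exact h
  have hqp : q ∈ pCore p (↥H ⧸ C) := by
    refine Subnormal.mem_pCore_of_forall_closure_pair fun r => ?_
    rintro ⟨t, ht⟩
    set T := Subgroup.closure ({q, r * q * r⁻¹} : Set (↥H ⧸ C))
    set a' : T := ⟨q, Subgroup.subset_closure (Or.inl rfl)⟩
    set b' : T := ⟨r * q * r⁻¹, Subgroup.subset_closure (Or.inr rfl)⟩
    have hgen : Subgroup.closure {a', b'} = ⊤ := by
      refine Subgroup.map_injective T.subtype_injective ?_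
      rw [MonoidHom.map_closure, ← MonoidHom.range_eq_map, Subgroup.range_subtype, Set.image_pair]
      rfl
    obtain ⟨k, hk⟩ := PGroups.slFree_quadratic_pair_addAction hp2 (hfree.subgroup T) hgen
      (f.comp T.subtype) hqa (hqc r) ⟨t, ht⟩
    exact ⟨k, Subtype.ext (hf _ hk)⟩
  -- a nontrivial fixed point of the `p`-core
  let P := pCore p (↥H ⧸ C)
  have hP : IsPGroup p P := Cores.isPGroup_pCore p _
  letI : MulAction P V :=
    { smul := fun x v => Ψ x v
      one_smul := fun v => by show Ψ ((1 : P) : ↥H ⧸ C) v = v; rw [OneMemClass.coe_one, map_one]; rfl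
      mul_smul := fun x y v => by
        show Ψ ((x * y : P) : ↥H ⧸ C) v = Ψ x (Ψ y v); rw [Subgroup.coe_mul, map_mul]; rfl }
  have hVp : IsPGroup p V := fun v => ⟨1, Subtype.ext (by simpa using hV.2 v v.2)⟩
  have hdvd : p ∣ Nat.card V := by
    obtain ⟨n, hn⟩ := IsPGroup.iff_card.1 hVp
    refine hn ▸ dvd_pow_self p fun h => hV0 (Subgroup.card_eq_one.1 ?_)
    rw [hn, h, pow_zero]
  obtain ⟨v, hv, hv1⟩ := hP.exists_fixed_point_of_prime_dvd_card_of_fixed_point V hdvd
    (a := (1 : V)) (fun x => map_one (Ψ x))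
  let U : Subgroup G :=
    { carrier := {u | ∃ hu : u ∈ V, ∀ x : P, Ψ x ⟨u, hu⟩ = ⟨u, hu⟩}
      one_mem' := ⟨one_mem V, fun x => map_one (Ψ x)⟩
      mul_mem' := by
        rintro u w ⟨hu, h1⟩ ⟨hw, h2⟩
        refine ⟨mul_mem hu hw, fun x => ?_⟩
        rw [show (⟨u * w, mul_mem hu hw⟩ : V) = ⟨u, hu⟩ * ⟨w, hw⟩ from rfl, map_mul, h1 x, h2 x]
      inv_mem' := by
        rintro u ⟨hu, h1⟩
        refine ⟨inv_mem hu, fun x => ?_⟩
        rw [show (⟨u⁻¹, inv_mem hu⟩ : V) = ⟨u, hu⟩⁻¹ from rfl, map_inv, h1 x] }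
  have hUn : H ≤ Subgroup.normalizer (U : Set G) := by
    intro h hh
    refine Subgroup.mem_normalizer_iff.2 fun u => ?_
    have key : ∀ (h : H) (u : V), (∀ x : P, Ψ x u = u) → ∀ x : P, Ψ x (ψ h u) = ψ h u := by
      intro h u hu x
      have hPn : P.Normal := pCore_normal p _
      have hy := hu ⟨_, hPn.conj_mem' x x.2 (QuotientGroup.mk h)⟩
      simp only [map_mul, map_inv, MulAut.mul_apply] at hy
      rw [show ψ h = Ψ (QuotientGroup.mk h) from rfl]
      have h3 := congrArg (Ψ (QuotientGroup.mk h)) hy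
      rwa [MulAut.apply_inv_self] at h3
    constructor
    · rintro ⟨hu, h1⟩
      refine ⟨(Subgroup.mem_normalizer_iff.1 (hHV hh) u).1 hu, ?_⟩
      exact key ⟨h, hh⟩ ⟨u, hu⟩ h1
    · rintro ⟨hu, h1⟩
      have hu' := (Subgroup.mem_normalizer_iff.1 (hHV hh) u).2 hu
      refine ⟨hu', fun x => ?_⟩
      have h2 := key ⟨h, hh⟩⁻¹ ⟨_, hu⟩ h1 x
      have e : ψ (⟨h, hh⟩⁻¹ : H) ⟨_, hu⟩ = ⟨u, hu'⟩ := Subtype.ext (by
        rw [hψv]; simp [mul_assoc])
      rwa [e] at h2
  rcases hirr U (fun u hu => hu.1) hUn with hU | hU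
  · refine absurd ?_ hv1
    have : (v : G) ∈ U := ⟨v.2, hv⟩
    rw [hU, Subgroup.mem_bot] at this
    exact (Subtype.ext this.symm : (1 : V) = v)
  · intro u hu
    obtain ⟨hu', h1⟩ : u ∈ U := hU.symm ▸ hu
    have h2 := congrArg Subtype.val (h1 ⟨q, hqp⟩)
    change a * u * a⁻¹ = u at h2
    exact (mul_inv_eq_iff_eq_mul.1 h2).symm

end CfsgLib.Amalgams
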